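import Mathlib
import Cfsg.Agent.Lib.Helper81.FCZ.Defs
import Cfsg.Agent.Lib.Helper5.Pres120

/-!
# Project FCZ (S3359): packages [SL-CEN] and [CEN]

The centre of `SL(2,5)` is `{1, -1}`.
-/

set_option autoImplicit false

namespace Cfsg.Agent.Lib.Helper38.FCZ

open Cfsg.Agent.Lib.Helper81.FCZ Cfsg.Agent.Lib.Helper5.Pres120

universe u

theorem z5_mem_center : Z₅ ∈ Subgroup.center Gam := by
  rw [Matrix.SpecialLinearGroup.mem_center_iff]
  refine ⟨-1, by simp, ?_⟩
  decide

theorem z5_ne_one : Z₅ ≠ 1 := by decide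

theorem sq_eq_one_zmod5 : ∀ r : ZMod 5, r ^ 2 = 1 → r = 1 ∨ r = -1 := by decide

theorem center_gam_cases (c : Gam) (hc : c ∈ Subgroup.center Gam) : c = 1 ∨ c = Z₅ := by
  rw [Matrix.SpecialLinearGroup.mem_center_iff] at hc
  obtain ⟨r, hr, hs⟩ := hc
  rw [Fintype.card_fin] at hr
  rcases sq_eq_one_zmod5 r hr with rfl | rfl
  · left
    apply Subtype.ext
    rw [← hs]
    simp
  · right
    apply Subtype.ext
    rw [← hs]
    decide

theorem center_gam_coe : ((Subgroup.center Gam : Subgroup Gam) : Set Gam) = {1, Z₅} := by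
  ext c
  constructor
  · intro hc
    rcases center_gam_cases c hc with h | h
    · left; exact h
    · right; exact h
  · rintro (h | h)
    · rw [h]; exact Subgroup.one_mem _
    · rw [h]; exact z5_mem_center

theorem pkgSLCen : PkgSLCen := by
  show Nat.card (Subgroup.center Gam) = 2
  rw [← SetLike.coe_sort_coe, Nat.card_coe_set_eq, center_gam_coe]
  exact Set.ncard_pair (Ne.symm z5_ne_one)

theorem pkgCen : PkgCen.{u} := by
  intro hcen G _ S ⟨e⟩
  have h1 : (Subgroup.center S).map S.subtype = S ⊓ Subgroup.centralizer (S : Set G) := by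
    ext x
    rw [Subgroup.mem_map, Subgroup.mem_inf, Subgroup.mem_centralizer_iff]
    constructor
    · rintro ⟨c, hc, rfl⟩
      refine ⟨c.2, ?_⟩
      intro s hs
      have h := Subgroup.mem_center_iff.mp hc ⟨s, hs⟩
      exact congrArg Subtype.val h
    · rintro ⟨hxS, hxC⟩
      refine ⟨⟨x, hxS⟩, ?_, rfl⟩
      rw [Subgroup.mem_center_iff]
      intro s
      apply Subtype.ext
      exact hxC s s.2
  rw [← h1, Subgroup.card_map_of_injective S.subtype_injective,
    Nat.card_congr (Subgroup.centerCongr e).toEquiv]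
  exact hcen

end Cfsg.Agent.Lib.Helper38.FCZ
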