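import Mathlib
import Cfsg.Agent.Lib.Helper81.FCZ.Defs
import Cfsg.Agent.Lib.Helper5.Pres120
import Cfsg.Agent.Lib.Helper38.FCZ.SLCen

/-!
# Project FCZ (S3359): package [SL-A5]

A surjection `SL(2,5) → Alt(5)` with kernel the centre.
-/

set_option autoImplicit false

namespace Cfsg.Agent.Lib.Helper38.FCZ

open Cfsg.Agent.Lib.Helper81.FCZ Cfsg.Agent.Lib.Helper5.Pres120 Equiv

/-- The `3`-cycle `0 → 1 → 2 → 0`. -/
def p5a : Equiv.Perm (Fin 5) :=
  ⟨![1, 2, 0, 3, 4], ![2, 0, 1, 3, 4], by decide, by decide⟩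

/-- The `5`-cycle `0 → 2 → 4 → 1 → 3 → 0`. -/
def p5b : Equiv.Perm (Fin 5) :=
  ⟨![2, 3, 4, 0, 1], ![3, 4, 0, 1, 2], by decide, by decide⟩

theorem p5a_eq : p5a = Equiv.swap 0 1 * Equiv.swap 1 2 := by decide

theorem p5b_eq : p5b = Equiv.swap 0 2 * Equiv.swap 2 4 * Equiv.swap 4 1 * Equiv.swap 1 3 := by
  decide

theorem p5a_mem : p5a ∈ alternatingGroup (Fin 5) := by
  rw [Equiv.Perm.mem_alternatingGroup, p5a_eq]
  simp [Equiv.Perm.sign_mul]

theorem p5b_mem : p5b ∈ alternatingGroup (Fin 5) := by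
  rw [Equiv.Perm.mem_alternatingGroup, p5b_eq]
  simp [Equiv.Perm.sign_mul]

/-- A `3`-cycle. -/
def a5a : alternatingGroup (Fin 5) := ⟨p5a, p5a_mem⟩

/-- A `5`-cycle. -/
def a5b : alternatingGroup (Fin 5) := ⟨p5b, p5b_mem⟩

theorem a5_r1 : a5a ^ 3 = 1 := by decide
theorem a5_r2 : a5b ^ 5 = 1 := by decide
theorem a5_r3 : (1 : alternatingGroup (Fin 5)) ^ 2 = 1 := by simp
theorem a5_r4 : (1 : alternatingGroup (Fin 5))⁻¹ * a5a * 1 * a5a⁻¹ = 1 := by simp
theorem a5_r5 : (1 : alternatingGroup (Fin 5))⁻¹ * a5b * 1 * a5b⁻¹ = 1 := by simp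
theorem a5_r6 : (a5a * a5b) ^ 2 * (1 : alternatingGroup (Fin 5))⁻¹ = 1 := by decide

theorem a5a_ne : a5a ≠ 1 := by decide
theorem a5b_ne : a5b ≠ 1 := by decide
theorem a5ab_ne : a5a * a5b ≠ 1 := by decide
theorem a5ab_sq : (a5a * a5b) ^ 2 = 1 := by decide

/-- The homomorphism from the presented group onto `Alt(5)`. -/
noncomputable def toA5 : PresentedGroup rels →* alternatingGroup (Fin 5) :=
  lift a5a a5b 1 a5_r1 a5_r2 a5_r3 a5_r4 a5_r5 a5_r6

theorem toA5_range : toA5.range = ⊤ := by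
  have hx : a5a ∈ toA5.range := ⟨PresentedGroup.of 0, lift_x a5a a5b 1 a5_r1 a5_r2 a5_r3 a5_r4 a5_r5 a5_r6⟩
  have hy : a5b ∈ toA5.range := ⟨PresentedGroup.of 1, lift_y a5a a5b 1 a5_r1 a5_r2 a5_r3 a5_r4 a5_r5 a5_r6⟩
  have hxy : a5a * a5b ∈ toA5.range := mul_mem hx hy
  have o3 : orderOf a5a = 3 := by
    have : Fact (Nat.Prime 3) := ⟨by norm_num⟩
    exact orderOf_eq_prime a5_r1 a5a_ne
  have o5 : orderOf a5b = 5 := by
    have : Fact (Nat.Prime 5) := ⟨by norm_num⟩
    exact orderOf_eq_prime a5_r2 a5b_ne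
  have o2 : orderOf (a5a * a5b) = 2 := by
    have : Fact (Nat.Prime 2) := ⟨by norm_num⟩
    exact orderOf_eq_prime a5ab_sq a5ab_ne
  have d3 : 3 ∣ Nat.card toA5.range := by
    have h := Subgroup.orderOf_dvd_natCard _ hx
    rwa [o3] at h
  have d5 : 5 ∣ Nat.card toA5.range := by
    have h := Subgroup.orderOf_dvd_natCard _ hy
    rwa [o5] at h
  have d2 : 2 ∣ Nat.card toA5.range := by
    have h := Subgroup.orderOf_dvd_natCard _ hxy
    rwa [o2] at h
  have hc60 : Nat.card (alternatingGroup (Fin 5)) = 60 := by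
    rw [nat_card_alternatingGroup]
    simp [Nat.factorial]
  have hdvd : Nat.card toA5.range ∣ 60 := hc60 ▸ Subgroup.card_subgroup_dvd_card _
  have h30 : 30 ∣ Nat.card toA5.range := by
    have h6 : 6 ∣ Nat.card toA5.range :=
      Nat.Coprime.mul_dvd_of_dvd_of_dvd (by norm_num : Nat.Coprime 2 3) d2 d3
    exact Nat.Coprime.mul_dvd_of_dvd_of_dvd (by norm_num : Nat.Coprime 6 5) h6 d5
  have hcases : Nat.card toA5.range = 30 ∨ Nat.card toA5.range = 60 := by
    obtain ⟨k, hk⟩ := h30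
    have hpos : 0 < Nat.card toA5.range := Nat.card_pos
    have hle : Nat.card toA5.range ≤ 60 := Nat.le_of_dvd (by norm_num) hdvd
    have hk2 : k = 1 ∨ k = 2 := by omega
    rcases hk2 with rfl | rfl
    · left; omega
    · right; omega
  rcases hcases with h | h
  · exfalso
    have hidx : toA5.range.index = 2 := by
      have := Subgroup.card_mul_index toA5.range
      rw [h, hc60] at this
      omega
    have hn : toA5.range.Normal := Subgroup.normal_of_index_eq_two hidx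
    have hsimple : IsSimpleGroup (alternatingGroup (Fin 5)) :=
      alternatingGroup.isSimpleGroup (by simp)
    rcases hn.eq_bot_or_eq_top with hb | ht
    · rw [hb, Subgroup.card_bot] at h
      omega
    · rw [ht, Subgroup.card_top, hc60] at h
      omega
  · exact Subgroup.eq_top_of_card_eq _ (by rw [h, hc60])

theorem equivSL_symm_z5 : equivSL.symm Z₅ = PresentedGroup.of 2 := by
  rw [MulEquiv.symm_apply_eq]
  exact (lift_z X₅ Y₅ Z₅ m1 m2 m3 m4 m5 m6).symm

theorem pkgSLA5 : PkgSLA5 := by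
  have hsurj : Function.Surjective (toA5.comp equivSL.symm.toMonoidHom) := by
    intro y
    have hy : y ∈ toA5.range := by rw [toA5_range]; exact Subgroup.mem_top y
    obtain ⟨w, hw⟩ := hy
    exact ⟨equivSL w, by simp [hw]⟩
  refine ⟨toA5.comp equivSL.symm.toMonoidHom, hsurj, ?_⟩
  have hfin : Finite Gam := Nat.finite_of_card_ne_zero (by rw [card_SL2_five]; norm_num)
  have hc60 : Nat.card (alternatingGroup (Fin 5)) = 60 := by
    rw [nat_card_alternatingGroup]
    simp [Nat.factorial]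
  have hker : Nat.card (toA5.comp equivSL.symm.toMonoidHom).ker = 2 := by
    have h1 := Subgroup.card_eq_card_quotient_mul_card_subgroup
      (toA5.comp equivSL.symm.toMonoidHom).ker
    have h2 : Nat.card (Gam ⧸ (toA5.comp equivSL.symm.toMonoidHom).ker) = 60 := by
      rw [Nat.card_congr (QuotientGroup.quotientKerEquivOfSurjective _ hsurj).toEquiv, hc60]
    rw [h2, card_SL2_five] at h1
    omega
  have hle : Subgroup.center Gam ≤ (toA5.comp equivSL.symm.toMonoidHom).ker := by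
    intro c hc
    rcases center_gam_cases c hc with rfl | rfl
    · exact Subgroup.one_mem _
    · rw [MonoidHom.mem_ker]
      show toA5 (equivSL.symm Z₅) = 1
      rw [equivSL_symm_z5]
      exact lift_z a5a a5b 1 a5_r1 a5_r2 a5_r3 a5_r4 a5_r5 a5_r6
  have hcen : Nat.card (Subgroup.center Gam) = 2 := pkgSLCen
  exact (Subgroup.eq_of_le_of_card_ge hle (by rw [hker, hcen])).symm

end Cfsg.Agent.Lib.Helper38.FCZ
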